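import Cfsg.Agent.H3.Ch.Base

/-! Orders of primitive groups: the arithmetic statement of the imprimitive case. -/

set_option autoImplicit false

namespace Cfsg.Agent.H9.Ch

open Cfsg.Agent.H3.Ch

/-- the potential -/
noncomputable def psi (y : ℝ) : ℝ := (Real.log y) ^ 2 / 2 + 2 * (1 - 1 / Real.sqrt y)

/-- `μ` is allowed by the minimal degree bound of doubly transitive groups of degree `n` -/
def Bo (n μ : ℕ) : Prop := ∀ k, 4 ≤ k → k < μ → (k - 1) * (k - 2) < (n - k) * ((k + 2) / 3 - 1)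

/-- arithmetic of the imprimitive case: `y = |J|`, `x = |J_α|`, `N = n + 2 - t` the degree of `J` -/
def NumI : Prop := ∀ (n t N a b x y : ℕ) (S : ℕ → ℕ → Prop), 5 ≤ n → 2 ≤ t → t + 3 ≤ n → (∀ r < t, ¬ Mil n r) →
  N + t = n + 2 → 2 ≤ a → 2 ≤ b → a * b + 1 = N → y = N * x →
  (∀ μ e c, 1 ≤ μ → Mu n t μ ∨ Bo n μ → e ≤ b → c ≤ a → e * a + c < μ → (e = b → c = 0) →
    x * (e.factorial * c.factorial) ≤ a.factorial ^ (b - e) * b.factorial) →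
  (a = 2 → y ≤ N ^ (Nat.log 2 N + 1)) →
  (∀ j < b, S (j + 1) (j * a)) →
  (∀ k s, S k s → 2 * a * s ≤ N →
    ∃ s', S (k + 1) s' ∧ a ∣ s' ∧ s' ≤ a * s ∧ s * a * (2 * a - 1) ≤ s' * (3 * a - 2)) →
  (∀ k s, S k s → 0 < s → s < N →
    2 * (s : ℝ) * ((N : ℝ) - s) * Real.log y ≤ k * (N : ℝ) * ((N : ℝ) - 1) * psi N) →
  n.descFactorial (t - 2) * y ≤ 4 ^ n

end Cfsg.Agent.H9.Ch
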