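import Cfsg.Agent.H9.Ch.A
import Cfsg.Agent.H9.Ch.NI0

/-! Orders of primitive groups: computable tests for the imprimitive case. -/

set_option autoImplicit false

namespace Cfsg.Agent.H9.Ch

open Cfsg.Agent.H3.Ch

/-- Newton iteration for the square root from above -/
def sqU (M x : ℕ) : ℕ → ℕ
  | 0 => x
  | k + 1 => force (sqU M x k) fun y => (y + M / y) / 2 + 1

theorem sqU_spec (M x k : ℕ) : M ≤ sqU M x (k + 2) * sqU M x (k + 2) := by
  have h0 : 0 < sqU M x (k + 1) := by rw [sqU, force_eq]; exact Nat.succ_pos _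
  rw [sqU, force_eq]
  generalize sqU M x (k + 1) = y at *
  have h1 := Nat.lt_mul_div_succ M h0
  generalize M / y = q at *
  have h2 : y + q + 1 ≤ 2 * ((y + q) / 2 + 1) := by omega
  generalize (y + q) / 2 + 1 = z at *
  have h3 : (y + q + 1) * (y + q + 1) ≤ (2 * z) * (2 * z) := Nat.mul_le_mul h2 h2
  zify at *
  nlinarith [sq_nonneg ((y : ℤ) - q - 1)]

/-- bound of `1000 psi N / log 2` -/
def Psi (N : ℕ) : ℕ := force (Nat.log2 (N ^ 64) + 1) fun c => force (sqU (10000 * N) 2000 8) fun σ =>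
  34658 * (c * c) / 409600 + 1 + (28854 * (σ - 100) / (10 * σ) + 1)

theorem div_le_succ (a b : ℕ) (hb : 0 < b) : (a : ℝ) / b ≤ ((a / b + 1 : ℕ) : ℝ) := by
  rw [div_le_iff₀ (by positivity)]
  have := Nat.lt_mul_div_succ a hb
  rw [mul_comm] at this
  exact_mod_cast this.le

theorem psi_le {N : ℕ} (hN : 1 ≤ N) : 1000 * psi N ≤ Real.log 2 * Psi N := by
  simp only [Psi, force_eq, Nat.log2_eq_log_two]
  have h1 := Nat.lt_pow_succ_log_self (b := 2) (by norm_num) (N ^ 64)
  have h2 := sqU_spec (10000 * N) 2000 6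
  rw [Nat.succ_eq_add_one] at h1
  generalize Nat.log 2 (N ^ 64) + 1 = c at *
  generalize sqU (10000 * N) 2000 (6 + 2) = σ at *
  have hσ : 100 ≤ σ := by by_contra hc; nlinarith
  have l1 := Real.log_two_gt_d9
  have l2 := Real.log_two_lt_d9
  have hN' : (1 : ℝ) ≤ N := by exact_mod_cast hN
  have a0 : 0 ≤ Real.log N := Real.log_nonneg hN'
  have a1 : 64 * Real.log N ≤ c * Real.log 2 := by
    have : Real.log ((N : ℝ) ^ 64) ≤ Real.log ((2 : ℝ) ^ c) :=
      Real.log_le_log (by positivity) (by exact_mod_cast h1.le)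
    simpa [Real.log_pow] using this
  have a2 := div_le_succ (34658 * (c * c)) 409600 (by norm_num)
  have a3 := div_le_succ (28854 * (σ - 100)) (10 * σ) (by omega)
  have hσ' : (100 : ℝ) ≤ σ := by exact_mod_cast hσ
  have a4 : Real.sqrt N ≤ σ / 100 := by
    rw [Real.sqrt_le_iff]
    have : (10000 : ℝ) * N ≤ σ * σ := by exact_mod_cast h2
    exact ⟨by positivity, by nlinarith⟩
  have a5 : 1 - 1 / Real.sqrt N ≤ (σ - 100) / σ := by
    have : 1 / ((σ : ℝ) / 100) ≤ 1 / Real.sqrt N := one_div_le_one_div_of_le (Real.sqrt_pos.2 (by linarith)) a4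
    have e : ((σ : ℝ) - 100) / σ = 1 - 1 / (σ / 100) := by field_simp
    linarith
  have a6 : 0 ≤ ((σ : ℝ) - 100) / σ := div_nonneg (by linarith) (by linarith)
  have e3 : ((28854 * (σ - 100) : ℕ) : ℝ) / ((10 * σ : ℕ) : ℝ) = 2885.4 * ((σ - 100) / σ) := by
    push_cast [Nat.cast_sub hσ]; field_simp; ring
  rw [e3] at a3
  rw [Nat.cast_add]
  generalize ((34658 * (c * c) / 409600 + 1 : ℕ) : ℝ) = A at *
  generalize ((28854 * (σ - 100) / (10 * σ) + 1 : ℕ) : ℝ) = B at *
  push_cast at a2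
  have a7 : (64 * Real.log N) ^ 2 ≤ (c * Real.log 2) ^ 2 := pow_le_pow_left₀ (by positivity) a1 2
  have a8 : (c : ℝ) * c * Real.log 2 * Real.log 2 ≤ c * c * Real.log 2 * 0.69316 :=
    mul_le_mul_of_nonneg_left (by linarith) (by positivity)
  have a9 : Real.log 2 * (34658 * (c * c) / 409600) ≤ Real.log 2 * A := mul_le_mul_of_nonneg_left a2 (by linarith)
  have a10 : Real.log 2 * (2885.4 * ((σ - 100) / σ)) ≤ Real.log 2 * B := mul_le_mul_of_nonneg_left a3 (by linarith)
  have a11 : 2000 * (((σ : ℝ) - 100) / σ) ≤ Real.log 2 * (2885.4 * ((σ - 100) / σ)) := by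
    rw [← mul_assoc]; exact mul_le_mul_of_nonneg_right (by linarith) a6
  unfold psi
  nlinarith

/-- the test of the potential bound -/
def Q (N E P k s : ℕ) : Bool := decide (0 < s) && decide (k * N * (N - 1) * P ≤ 2 * (s * (N - s)) * 1000 * E)

/-- the potential hypothesis -/
def Pot (N y : ℕ) (S : ℕ → ℕ → Prop) : Prop := ∀ k s, S k s → 0 < s → s < N →
  2 * (s : ℝ) * ((N : ℝ) - s) * Real.log y ≤ k * (N : ℝ) * ((N : ℝ) - 1) * psi N

theorem le_pow_of_log {y E : ℕ} (h : Real.log y ≤ E * Real.log 2) : y ≤ 2 ^ E := by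
  rcases y.eq_zero_or_pos with rfl | hy
  · positivity
  rw [← Real.log_pow, Real.log_le_log_iff (by exact_mod_cast hy) (by positivity)] at h
  exact_mod_cast h

theorem Q_spec {N E y k s s0 : ℕ} {S : ℕ → ℕ → Prop} (hP : Pot N y S) (h : Q N E (Psi N) k s0 = true) (hS : S k s)
    (h0 : 0 < s) (h1 : s < N) (h2 : s0 * (N - s0) ≤ s * (N - s)) : y ≤ 2 ^ E := by
  simp only [Q, Bool.and_eq_true, decide_eq_true_eq] at h
  have h3 : k * N * (N - 1) * Psi N ≤ 2 * (s * (N - s)) * 1000 * E := h.2.trans (by gcongr)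
  have h4 : (k : ℝ) * N * (N - 1) * Psi N ≤ 2 * (s * (N - s)) * 1000 * E := by
    have := (Nat.cast_le (α := ℝ)).2 h3
    push_cast [Nat.cast_sub h1.le, Nat.cast_sub (show 1 ≤ N by omega)] at this
    exact this
  have h5 := hP k s hS h0 h1
  have h6 := psi_le (N := N) (by omega)
  have h7 : (1 : ℝ) ≤ N := by exact_mod_cast (show 1 ≤ N by omega)
  have h8 : (0 : ℝ) < s * (N - s) := mul_pos (by exact_mod_cast h0) (sub_pos.2 (by exact_mod_cast h1))
  have h9 : (0 : ℝ) ≤ k * N * (N - 1) := mul_nonneg (by positivity) (by linarith)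
  have l1 := Real.log_two_gt_d9
  refine le_pow_of_log (le_of_mul_le_mul_left ?_ (show (0 : ℝ) < 2000 * (s * (N - s)) by positivity))
  have := mul_le_mul_of_nonneg_left h6 h9
  have := mul_le_mul_of_nonneg_left h4 (show 0 ≤ Real.log 2 by linarith)
  nlinarith

theorem mono_half {N s s0 : ℕ} (h : s0 ≤ s) (h2 : 2 * s ≤ N) : s0 * (N - s0) ≤ s * (N - s) := by
  obtain ⟨d, rfl⟩ := Nat.exists_eq_add_of_le h
  obtain ⟨e, rfl⟩ := Nat.exists_eq_add_of_le h2
  rw [show 2 * (s0 + d) + e - s0 = s0 + 2 * d + e by omega, show 2 * (s0 + d) + e - (s0 + d) = s0 + d + e by omega]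
  nlinarith [Nat.zero_le (d * d), Nat.zero_le (d * e)]

theorem ceil_le {X D s : ℕ} (hD : 0 < D) (h : X ≤ s * D) : (X + D - 1) / D ≤ s :=
  Nat.lt_succ_iff.1 (Nat.div_lt_of_lt_mul (by rw [Nat.mul_succ, mul_comm]; omega))

/-- the growth hypothesis -/
def Gr (N a : ℕ) (S : ℕ → ℕ → Prop) : Prop := ∀ k s, S k s → 2 * a * s ≤ N →
  ∃ s', S (k + 1) s' ∧ a ∣ s' ∧ s' ≤ a * s ∧ s * a * (2 * a - 1) ≤ s' * (3 * a - 2)

/-- following the growth of invariant sets -/
def path (N a E P : ℕ) : ℕ → ℕ → ℕ → ℕ → Bool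
  | 0, _, _, _ => false
  | j + 1, k, lo, hi => force k fun k => force lo fun lo => force hi fun hi => Q N E P k lo ||
      ((decide (2 * a * hi ≤ N) || Q N E P k (N / (2 * a) + 1)) &&
        path N a E P j (k + 1) (((lo * a * (2 * a - 1) + (3 * a - 2) - 1) / (3 * a - 2) + a - 1) / a * a) (hi * a))

theorem path_spec {N a E y : ℕ} {S : ℕ → ℕ → Prop} (ha : 2 ≤ a) (hP : Pot N y S) (hG : Gr N a S) {j k lo hi s : ℕ}
    (h : path N a E (Psi N) j k lo hi = true) (hS : S k s) (h0 : 0 < s) (h1 : lo ≤ s) (h2 : s ≤ hi)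
    (h3 : 2 * s ≤ N) : y ≤ 2 ^ E := by
  induction j generalizing k lo hi s with
  | zero => cases h
  | succ j ih =>
    simp only [path, force_eq, Bool.or_eq_true, Bool.and_eq_true, decide_eq_true_eq] at h
    rcases h with h | ⟨h4, h⟩
    · exact Q_spec hP h hS h0 (by omega) (mono_half h1 h3)
    by_cases hc : 2 * a * s ≤ N
    · obtain ⟨_, g1, ⟨q, rfl⟩, g3, g4⟩ := hG k s hS hc
      refine ih h g1 ?_ ?_ (g3.trans (by rw [mul_comm hi]; gcongr)) (by rw [mul_assoc] at hc; omega)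
      · refine Nat.pos_of_ne_zero fun e => ?_
        rw [e, zero_mul] at g4
        have : 0 < s * a * (2 * a - 1) := Nat.mul_pos (Nat.mul_pos h0 (by omega)) (by omega)
        omega
      · have g5 := ceil_le (X := lo * a * (2 * a - 1)) (D := 3 * a - 2) (s := a * q) (by omega)
          (le_trans (by gcongr) g4)
        rw [mul_comm a q] at g5 ⊢
        exact Nat.mul_le_mul_right _ (ceil_le (by omega) g5)
    · rcases h4 with h4 | h4
      · exact absurd (le_trans (by gcongr) h4) hc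
      · exact Q_spec hP h4 hS h0 (by omega) (mono_half (Nat.div_lt_of_lt_mul (by omega)) h3)

/-- the tests not depending on the minimal degree -/
def ckA (N E P a : ℕ) : Bool :=
  (a == 2 && decide (N ^ (Nat.log2 N + 1) ≤ 2 ^ E)) || path N a E P 12 2 a a ||
    (decide (2 * a + 1 < N) && Q N E P 3 (2 * a)) || (decide (3 * a + 1 < N) && Q N E P 4 (3 * a))

theorem ckA_spec {N a b E y : ℕ} {S : ℕ → ℕ → Prop} (ha : 2 ≤ a) (hb : 2 ≤ b) (hN : a * b + 1 = N)
    (hD : a = 2 → y ≤ N ^ (Nat.log 2 N + 1)) (hS : ∀ j < b, S (j + 1) (j * a)) (hG : Gr N a S) (hP : Pot N y S)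
    (h : ckA N E (Psi N) a = true) : y ≤ 2 ^ E := by
  simp only [ckA, Bool.or_eq_true, Bool.and_eq_true, decide_eq_true_eq, beq_iff_eq, Nat.log2_eq_log_two] at h
  have h2 : 2 * a ≤ a * b := by nlinarith
  rcases h with ((⟨h, h'⟩ | h) | ⟨h, h'⟩) | ⟨h, h'⟩
  · exact (hD h).trans h'
  · exact path_spec ha hP hG h (s := a) (by simpa using hS 1 (by omega)) (by omega) le_rfl le_rfl (by omega)
  · exact Q_spec hP h' (hS 2 (by by_contra hc; nlinarith)) (by omega) (by omega) le_rfl
  · exact Q_spec hP h' (hS 3 (by by_contra hc; nlinarith)) (by omega) (by omega) le_rfl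

/-- loop over the divisors -/
def dv (m : ℕ) (g : ℕ → Bool) : ℕ → ℕ → Bool
  | 0, d => decide (m < d * d)
  | k + 1, d => force d fun d => decide (m < d * d) ||
      ((m % d != 0 || (g d && force (m / d) g)) && dv m g k (d + 1))

theorem dv_spec {m : ℕ} {g : ℕ → Bool} {k d a b : ℕ} (h : dv m g k d = true) (h0 : 0 < d) (ha : d ≤ a) (hb : d ≤ b)
    (e : a * b = m) : g a = true := by
  induction k generalizing d with
  | zero => simp only [dv, decide_eq_true_eq] at h; have := Nat.mul_le_mul ha hb; omega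
  | succ k ih =>
    simp only [dv, force_eq, Bool.or_eq_true, Bool.and_eq_true, decide_eq_true_eq, bne_iff_ne] at h
    rcases h with h | ⟨h1, h⟩
    · have := Nat.mul_le_mul ha hb; omega
    rcases ha.eq_or_lt with rfl | ha
    · exact (h1.resolve_left (by rw [← e]; simp)).1
    rcases hb.eq_or_lt with rfl | hb
    · have := (h1.resolve_left (by rw [← e]; simp)).2
      rwa [← e, Nat.mul_div_cancel _ h0] at this
    · exact ih h (by omega) ha hb

/-- first failure of a test -/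
def srch (p : ℕ → Bool) : ℕ → ℕ → ℕ
  | 0, k => k
  | j + 1, k => force k fun k => if p k then srch p j (k + 1) else k

theorem srch_spec (p : ℕ → Bool) (j k : ℕ) : k ≤ srch p j k ∧ ∀ i, k ≤ i → i < srch p j k → p i = true := by
  induction j generalizing k with
  | zero => exact ⟨le_rfl, fun i h1 h2 => absurd h1 (not_le.2 h2)⟩
  | succ j ih =>
    simp only [srch, force_eq]
    split_ifs with h
    · refine ⟨by have := (ih (k + 1)).1; omega, fun i h1 h2 => ?_⟩
      rcases h1.eq_or_lt with rfl | h1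
      exacts [h, (ih _).2 i h1 h2]
    · exact ⟨le_rfl, fun i h1 h2 => absurd h1 (not_le.2 h2)⟩

/-- the minimal degree used -/
def muc (n t : ℕ) : ℕ :=
  max (srch (fun k => decide ((k - 1) * (k - 2) < (n - k) * ((k + 2) / 3 - 1))) 100 4)
    (if 3 ≤ t then max (2 * t - 2) (srch (fun k => decide (3 * (1 + (k - 1) * (k - 2) / (n - 2)) < k)) 100 4) else 0)

theorem muc_spec (n t : ℕ) : 1 ≤ muc n t ∧ (Mu n t (muc n t) ∨ Bo n (muc n t)) := by
  have h1 := srch_spec (fun k => decide ((k - 1) * (k - 2) < (n - k) * ((k + 2) / 3 - 1))) 100 4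
  have h2 := srch_spec (fun k => decide (3 * (1 + (k - 1) * (k - 2) / (n - 2)) < k)) 100 4
  simp only [decide_eq_true_eq] at h1 h2
  unfold muc
  refine ⟨le_trans (by omega) (le_max_left _ _), ?_⟩
  refine max_rec' (fun μ => Mu n t μ ∨ Bo n μ) (Or.inr h1.2) (Or.inl ?_)
  split_ifs with h
  · exact max_rec' (Mu n t) (Or.inr ⟨h, Or.inl le_rfl⟩) (Or.inr ⟨h, Or.inr h2.2⟩)
  · exact Or.inl (by omega)

/-- the test with the minimal degree -/
def ckB (n D N μ a : ℕ) : Bool := force ((N - 1) / a) fun b => force (min b ((μ - 1) / a)) fun e =>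
  force (if e = b then 0 else min a (μ - 1 - e * a)) fun c =>
    decide (D * N * (a.factorial ^ (b - e) * b.factorial) ≤ 4 ^ n * (e.factorial * c.factorial))

/-- check of one degree -/
def ck4 (n : ℕ) : Bool := decide (n < 5) || decide (540 < n) ||
  (List.range' 2 (min (fr n 40 3) (n - 3) - 1)).all fun t => force t fun t => force (n + 2 - t) fun N =>
    force (n.descFactorial (t - 2)) fun D => force (2 * n - Nat.log2 (2 * D - 1)) fun E => force (Psi N) fun P =>
      decide (D * 2 ^ E ≤ 4 ^ n) && dv (N - 1) (fun a => ckA N E P a || force (muc n t) fun μ => ckB n D N μ a) 30 2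

/-- check of one large degree -/
def ck5 (N : ℕ) : Bool := decide (N < 500) ||
  force (9 * N / 5 + 31) fun E => force (Psi N) fun P => dv (N - 1) (ckA N E P) 50 2

end Cfsg.Agent.H9.Ch
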