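import Cfsg.Agent.H9.Ch.NI1

/-! Orders of primitive groups: the imprimitive case in large degree. -/

set_option autoImplicit false

namespace Cfsg.Agent.H9.Ch

open Cfsg.Agent.H3.Ch

theorem psi_tail {N : ℝ} (h : 2048 ≤ N) : psi N ≤ 0.697 * Real.sqrt N := by
  have h1 : 45.25 ≤ Real.sqrt N := Real.le_sqrt_of_sq_le (by linarith)
  have h2 : 6.72 ≤ Real.sqrt (Real.sqrt N) := Real.le_sqrt_of_sq_le (by linarith)
  have h3 := Real.log_sqrt (x := N) (by linarith)
  have h4 := Real.log_sqrt (x := Real.sqrt N) (by linarith)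
  have h5 := Real.sq_sqrt (x := Real.sqrt N) (by linarith)
  have h0 : 0 ≤ Real.log N := Real.log_nonneg (by linarith)
  have h6 : 0 < 1 / Real.sqrt N := by positivity
  unfold psi
  generalize Real.sqrt N = r at *
  generalize Real.sqrt r = u at *
  have h7 := Real.log_le_sub_one_of_pos (x := u / 2 ^ 3) (by positivity)
  rw [Real.log_div (by positivity) (by positivity), Real.log_pow] at h7
  have l2 := Real.log_two_lt_d9
  have h8 : Real.log N ≤ 1.1426 * u := by push_cast at h7; linarith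
  have h9 := pow_le_pow_left₀ h0 h8 2
  rw [mul_pow, h5] at h9
  linarith

theorem grow {N a : ℕ} {S : ℕ → ℕ → Prop} (ha : 3 ≤ a) (hG : Gr N a S) (j : ℕ) : ∀ k s, N - s ≤ j → S k s →
    2 * s ≤ N → a * 2 ^ k ≤ 4 * s → 2 ≤ k → ∃ k s, S k s ∧ 2 * s ≤ N ∧ a * 2 ^ k ≤ 4 * s ∧ 2 ≤ k ∧ N < 2 * a * s := by
  induction j with
  | zero =>
    intro k s h0 _ h2 h3 _
    have : 0 < a * 2 ^ k := by positivity
    omega
  | succ j ih =>
    intro k s h0 h1 h2 h3 h4
    by_cases hc : 2 * a * s ≤ N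
    · obtain ⟨s', g1, -, g3, g4⟩ := hG k s h1 hc
      have h5 : 0 < a * 2 ^ k := by positivity
      have h6 : 2 * s ≤ s' := by
        obtain ⟨c, rfl⟩ := Nat.exists_eq_add_of_le ha
        rw [show 2 * (3 + c) - 1 = 2 * c + 5 by omega, show 3 * (3 + c) - 2 = 3 * c + 7 by omega] at g4
        refine Nat.le_of_mul_le_mul_right (le_trans ?_ g4) (by omega)
        nlinarith [Nat.zero_le (s * c * c), Nat.zero_le (s * c)]
      rw [mul_assoc] at hc
      exact ih (k + 1) s' (by omega) g1 (by omega) (by rw [pow_succ, ← mul_assoc]; omega) (by omega)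
    · exact ⟨k, s, h1, h2, h3, h4, by omega⟩

theorem sq_le_pow2 {k : ℕ} (h : 2 ≤ k) : 8 * (k * k) ≤ 9 * 2 ^ k := by
  rcases h.eq_or_lt with rfl | h'
  · norm_num
  clear h
  have h : 3 ≤ k := h'
  clear h'
  induction k, h using Nat.le_induction with
  | base => norm_num
  | succ k h ih => rw [pow_succ]; nlinarith

theorem sq_le_pow3 {k : ℕ} (h : 12 ≤ k) : 16 * (k * k) ≤ 2 ^ k := by
  induction k, h using Nat.le_induction with
  | base => norm_num
  | succ k h ih => rw [pow_succ]; nlinarith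

theorem sq_le_pow4 {k : ℕ} (h : 6 ≤ k) : (k + 1) * (k + 1) ≤ 2 ^ k := by
  induction k, h using Nat.le_induction with
  | base => norm_num
  | succ k h ih => rw [pow_succ]; nlinarith

theorem tail {N a b y : ℕ} {S : ℕ → ℕ → Prop} (h : 2048 ≤ N) (ha : 2 ≤ a) (hb : 2 ≤ b) (hN : a * b + 1 = N)
    (hD : a = 2 → y ≤ N ^ (Nat.log 2 N + 1)) (hS : ∀ j < b, S (j + 1) (j * a)) (hG : Gr N a S) (hP : Pot N y S) :
    y ≤ 2 ^ (9 * N / 5 + 31) := by
  rcases ha.eq_or_lt with rfl | ha
  · have h1 := Nat.lt_pow_succ_log_self (b := 2) (by norm_num) N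
    have h2 := Nat.pow_log_le_self 2 (show N ≠ 0 by omega)
    have h3 : 6 ≤ Nat.log 2 N := (Nat.le_log_iff_pow_le (by norm_num) (by omega)).2 (by omega)
    have h4 := sq_le_pow4 h3
    refine (hD rfl).trans ((Nat.pow_le_pow_left h1.le _).trans ?_)
    rw [← pow_mul]
    exact Nat.pow_le_pow_right (by norm_num) (by rw [Nat.succ_eq_add_one]; omega)
  have h2 : 2 * a ≤ a * b := by nlinarith
  obtain ⟨k, s, g1, g2, g3, g4, g5⟩ := grow ha hG N 2 a (by omega) (by simpa using hS 1 (by omega)) (by omega)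
    (by omega) le_rfl
  have g6 := sq_le_pow2 g4
  have g0 : 0 < s := by by_contra hc; obtain rfl : s = 0 := by omega
                        simp at g5
  have g7 : k * k * N ≤ 9 * (s * s) := by
    have e1 : N * 2 ^ k ≤ 2 * a * s * 2 ^ k := Nat.mul_le_mul_right _ g5.le
    have e2 : a * 2 ^ k * (2 * s) ≤ 4 * s * (2 * s) := Nat.mul_le_mul_right _ g3
    have e3 := Nat.mul_le_mul_right N g6
    nlinarith
  have g8 : 16 * (k * k) ≤ N := by
    by_cases hk : 12 ≤ k
    · have := sq_le_pow3 hk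
      have : 3 * 2 ^ k ≤ a * 2 ^ k := Nat.mul_le_mul_right _ ha
      omega
    · nlinarith
  have p1 := hP k s g1 g0 (by omega)
  have hN' : (2048 : ℝ) ≤ N := by exact_mod_cast h
  have p2 := psi_tail hN'
  have p3 := Real.sq_sqrt (x := N) (by linarith)
  have p4 : 0 < Real.sqrt N := Real.sqrt_pos.2 (by linarith)
  generalize Real.sqrt N = r at *
  have q1 : (k : ℝ) * r ≤ 3 * s := by
    refine le_of_sq_le_sq ?_ (by positivity)
    have : (k : ℝ) * k * N ≤ 9 * (s * s) := by exact_mod_cast g7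
    rw [mul_pow, p3]; linarith
  have q2 : 4 * ((k : ℝ) * r) ≤ N := by
    have h16 : (16 : ℝ) * (k * k) ≤ N := by exact_mod_cast g8
    have : 4 * (k : ℝ) ≤ r := le_of_sq_le_sq (by rw [p3]; linarith) p4.le
    nlinarith
  have q3 : (0 : ℝ) < s := by exact_mod_cast g0
  have q4 : 2 * (s : ℝ) ≤ N := by exact_mod_cast g2
  have q5 : (k : ℝ) * N * (N - 1) * psi N ≤ 0.697 * (k * r) * (N * N) := by
    have := mul_le_mul_of_nonneg_left p2 (show (0 : ℝ) ≤ k * N * (N - 1) from mul_nonneg (by positivity) (by linarith))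
    have : (0 : ℝ) ≤ k * r * N := by positivity
    nlinarith
  have q6 : 0.697 * ((k : ℝ) * r) * (N * N) ≤ 2 * s * (N - s) * (1.22 * N) := by
    have hNN : (0 : ℝ) < N * N := by positivity
    by_cases hc : 7 * (s : ℝ) ≤ N
    · have e1 := mul_le_mul_of_nonneg_right q1 hNN.le
      have e2 : (0 : ℝ) ≤ s * N * (N - 7 * s) := mul_nonneg (by positivity) (by linarith)
      have e3 : (0 : ℝ) ≤ s * N * N := by positivity
      nlinarith
    · have e1 := mul_le_mul_of_nonneg_right q2 hNN.le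
      have e2 : (N : ℝ) / 7 * (N / 2) ≤ s * (N - s) := mul_le_mul (by linarith) (by linarith) (by positivity) q3.le
      have e3 := mul_le_mul_of_nonneg_right e2 (show (0 : ℝ) ≤ N by linarith)
      have e4 : (0 : ℝ) ≤ N * N * N := by positivity
      nlinarith
  have q7 : Real.log y ≤ 1.22 * N :=
    le_of_mul_le_mul_left (p1.trans (q5.trans q6)) (mul_pos (by linarith) (by linarith))
  have q8 : 9 * (N : ℝ) ≤ 5 * ((9 * N / 5 + 31 : ℕ) : ℝ) := by exact_mod_cast (show 9 * N ≤ 5 * (9 * N / 5 + 31) by omega)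
  have l1 := Real.log_two_gt_d9
  refine le_pow_of_log ?_
  generalize ((9 * N / 5 + 31 : ℕ) : ℝ) = E at *
  nlinarith

end Cfsg.Agent.H9.Ch
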