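import Cfsg.Agent.H9.Ch.NI2
import Cfsg.Agent.H9.Ch.NI3
import Cfsg.Agent.H9.Ch.NI4

/-! Orders of primitive groups: the arithmetic of the imprimitive case. -/

set_option autoImplicit false

namespace Cfsg.Agent.H9.Ch

open Cfsg.Agent.H3.Ch

theorem ck4_all {n : ℕ} (h : n < 768) : ck4 n = true := by
  by_cases h1 : n < 256
  · simpa using allB_spec ck4_a n h1
  by_cases h2 : n < 512
  · have := allB_spec ck4_b (n - 256) (by omega)
    rwa [show 1 * 2 ^ 8 + (n - 256) = n by omega] at this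
  · have := allB_spec ck4_c (n - 512) (by omega)
    rwa [show 2 * 2 ^ 8 + (n - 512) = n by omega] at this

theorem ck5_all {n : ℕ} (h : n < 2048) : ck5 n = true := by
  by_cases h1 : n < 1024
  · simpa using allB_spec ck5_a n h1
  · have := allB_spec ck5_b (n - 1024) (by omega)
    rwa [show 1 * 2 ^ 10 + (n - 1024) = n by omega] at this

/-- in large degree the transitivity degree is small -/
theorem desc_small {n t : ℕ} (hn : 540 < n) (h2 : 2 ≤ t) (ht : t ≤ n) (hM : ∀ r < t, ¬ Mil n r) :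
    45 * t ≤ n ∧ n.descFactorial (t - 2) * 2 ^ (9 * n / 5 + 31) ≤ 4 ^ n := by
  obtain ⟨R, hR, h3⟩ := good hn
  have h4 := hR t ht hM
  have h5 := (H5.Ch.s_bd n).2 (by omega)
  have h6 : f n = (3 * n + 1) / 2 - H5.Ch.s n - 1 := rfl
  have h7 : 9 ≤ Nat.log 2 n := (Nat.le_log_iff_pow_le (by norm_num) (by omega)).2 (by omega)
  have h8 : 9 * (R - 1) ≤ Nat.log 2 (n ^ (R - 1)) := Nat.le_log_of_pow_le (by norm_num) (by
    rw [pow_mul]; exact Nat.pow_le_pow_left (by omega) _)
  have h9 := Nat.lt_pow_succ_log_self (b := 2) (by norm_num) (n ^ (R - 1))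
  rw [Nat.succ_eq_add_one] at h9
  generalize Nat.log 2 (n ^ (R - 1)) = A at *
  refine ⟨by omega, ?_⟩
  have h10 : n.descFactorial (t - 2) * 2 ^ 9 ≤ 2 ^ (A + 1) := by
    calc _ ≤ n ^ (R - 2) * n := Nat.mul_le_mul ((Nat.descFactorial_le_pow _ _).trans
          (Nat.pow_le_pow_right (by omega) (by omega))) (by omega)
      _ = n ^ (R - 1) := by rw [← pow_succ]; congr 1; omega
      _ ≤ _ := h9.le
  calc _ = n.descFactorial (t - 2) * 2 ^ 9 * 2 ^ (9 * n / 5 + 22) := by rw [mul_assoc, ← pow_add]; congr 2; omega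
    _ ≤ 2 ^ (A + 1) * 2 ^ (9 * n / 5 + 22) := Nat.mul_le_mul_right _ h10
    _ = 2 ^ (A + 1 + (9 * n / 5 + 22)) := (pow_add _ _ _).symm
    _ ≤ 2 ^ (2 * n) := Nat.pow_le_pow_right (by norm_num) (by omega)
    _ = 4 ^ n := by rw [pow_mul]; norm_num

theorem numI : NumI := by
  intro n t N a b x y S h5 h2 ht hM hN ha hb hab hy hB hD hS hG hP
  by_cases hn : n ≤ 540
  · have h := ck4_all (n := n) (by omega)
    simp only [ck4, force_eq, Bool.or_eq_true, Bool.and_eq_true, decide_eq_true_eq, List.all_eq_true,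
      List.mem_range'_1] at h
    have h1 := fr_spec n 40 3 t (by omega) hM
    obtain ⟨h3, h4⟩ := (h.resolve_left (by omega)) t ⟨h2, by omega⟩
    rw [show n + 2 - t = N by omega] at h4
    have h6 := dv_spec h4 (by norm_num) ha hb (by omega)
    simp only [Bool.or_eq_true] at h6
    rcases h6 with h6 | h6
    · exact (Nat.mul_le_mul_left _ (ckA_spec ha hb hab hD hS hG hP h6)).trans h3
    simp only [ckB, force_eq, decide_eq_true_eq] at h6
    rw [show (N - 1) / a = b by rw [← hab, Nat.add_sub_cancel, Nat.mul_div_cancel_left _ (by omega)]] at h6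
    obtain ⟨m1, m2⟩ := muc_spec n t
    generalize muc n t = μ at *
    have h7 : min b ((μ - 1) / a) * a ≤ μ - 1 :=
      (Nat.mul_le_mul_right _ (min_le_right _ _)).trans (Nat.div_mul_le_self _ _)
    have h8 : min b ((μ - 1) / a) ≤ b := min_le_left _ _
    generalize min b ((μ - 1) / a) = e at *
    have h9 := hB μ e (if e = b then 0 else min a (μ - 1 - e * a)) m1 m2 h8 (by split_ifs <;> omega)
      (by split_ifs <;> omega) (fun h => if_pos h)
    generalize (if e = b then 0 else min a (μ - 1 - e * a)) = c at *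
    refine Nat.le_of_mul_le_mul_right (le_trans ?_ h6) (by positivity : 0 < e.factorial * c.factorial)
    rw [hy, ← mul_assoc _ N, mul_assoc _ x]
    exact Nat.mul_le_mul_left _ h9
  obtain ⟨h1, h3⟩ := desc_small (by omega) h2 (by omega) hM
  refine le_trans (Nat.mul_le_mul_left _ (le_trans (?_ : y ≤ 2 ^ (9 * N / 5 + 31))
    (Nat.pow_le_pow_right (by norm_num) (by omega)))) h3
  by_cases h4 : N < 2048
  · have h := ck5_all h4
    simp only [ck5, force_eq, Bool.or_eq_true, decide_eq_true_eq] at h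
    exact ckA_spec ha hb hab hD hS hG hP (dv_spec (h.resolve_left (by omega)) (by norm_num) ha hb (by omega))
  · exact tail (by omega) ha hb hab hD hS hG hP

end Cfsg.Agent.H9.Ch
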