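import Cfsg.Agent.H9.Ch.NI1

/-! Orders of primitive groups: the kernel check of the small degrees. -/

namespace Cfsg.Agent.H9.Ch

theorem ck4_a : allB ck4 8 0 = true := by decide +kernel
theorem ck4_b : allB ck4 8 1 = true := by decide +kernel
theorem ck4_c : allB ck4 8 2 = true := by decide +kernel

end Cfsg.Agent.H9.Ch
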